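import Mathlib
import Cfsg.Agent.Lib.Helper44.Frob3.Defs

set_option autoImplicit false

/-!
# S4427, package [X]: expansion of a power of a sum of group elements as a sum over words
-/

namespace Cfsg.Agent.Lib.Helper96.Frob3

universe u

/-- **[X]** -/
theorem pkgExpand : Cfsg.Agent.Lib.Helper44.Frob3.PkgExpand.{u} := by
  intro G _ ι _ σ m
  induction m with
  | zero =>
    rw [pow_zero, Fintype.sum_unique]
    simp [MonoidAlgebra.one_def]
  | succ m ih =>
    rw [pow_succ', ih, Finset.sum_mul_sum, ← (Fin.consEquiv (fun _ : Fin (m + 1) => ι)).sum_comp,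
      Fintype.sum_prod_type]
    refine Finset.sum_congr rfl fun i _ => Finset.sum_congr rfl fun g _ => ?_
    rw [← map_mul]
    congr 1
    rw [List.ofFn_succ, List.prod_cons]
    simp [Fin.consEquiv]
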